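import Mathlib
import Cfsg.Agent.Lib.Helper1.TransTate

/-!
Automorphisms of order prime to p of p-groups: class-two power formulas and the
theorem that (for odd p) acting trivially on the elements of order dividing p forces triviality.
-/

set_option autoImplicit false
set_option linter.unusedSectionVars false
set_option linter.unusedVariables false
set_option linter.style.haveILetI false
set_option linter.unusedSimpArgs false

namespace Cfsg.Agent.Lib.Helper1.CoprimeAut

open scoped commutatorElement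
open Cfsg.Agent.Lib.Helper16.Basic

universe u

section class2

variable {G : Type*} [Group G]

theorem pow_mul_comm_aux (x y z : G) (h : y * x = z * x * y) (hzx : Commute z x)
    (hzy : Commute z y) (n : ℕ) : y ^ n * x = x * y ^ n * z ^ n := by
  induction n with
  | zero => simp
  | succ n ih =>
    have hzyn : Commute z (y ^ n) := hzy.pow_right n
    calc y ^ (n + 1) * x = y * (y ^ n * x) := by rw [pow_succ', mul_assoc]
      _ = y * (x * y ^ n * z ^ n) := by rw [ih]
      _ = (y * x) * y ^ n * z ^ n := by simp only [mul_assoc]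
      _ = z * x * y * y ^ n * z ^ n := by rw [h]
      _ = x * (y * y ^ n) * (z * z ^ n) := by
        simp only [mul_assoc, hzx.left_comm, hzy.left_comm, hzyn.left_comm, hzx.eq, hzy.eq,
          hzyn.eq]
      _ = x * y ^ (n + 1) * z ^ (n + 1) := by rw [← pow_succ', ← pow_succ']

theorem class2_mul_pow (x y z : G) (h : y * x = z * x * y) (hzx : Commute z x)
    (hzy : Commute z y) (n : ℕ) : (x * y) ^ n = x ^ n * y ^ n * z ^ (n.choose 2) := by
  induction n with
  | zero => simp
  | succ n ih =>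
    have hzyn : Commute z (y ^ n) := hzy.pow_right n
    have hzc : Commute (z ^ (n.choose 2)) x := hzx.pow_left _
    have hzc' : Commute (z ^ (n.choose 2)) y := hzy.pow_left _
    have hzn : Commute (z ^ n) y := hzy.pow_left _
    have e : (n + 1).choose 2 = n + n.choose 2 := by
      rw [Nat.choose_succ_succ, Nat.choose_one_right]
    calc (x * y) ^ (n + 1) = (x * y) ^ n * (x * y) := pow_succ _ _
      _ = x ^ n * y ^ n * z ^ (n.choose 2) * (x * y) := by rw [ih]
      _ = x ^ n * (y ^ n * x) * y * z ^ (n.choose 2) := by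
        simp only [mul_assoc, hzc.left_comm, hzc'.left_comm, hzc.eq, hzc'.eq]
      _ = x ^ n * (x * y ^ n * z ^ n) * y * z ^ (n.choose 2) := by
        rw [pow_mul_comm_aux x y z h hzx hzy n]
      _ = (x ^ n * x) * (y ^ n * y) * (z ^ n * z ^ (n.choose 2)) := by
        simp only [mul_assoc, hzn.left_comm, hzn.eq]
      _ = x ^ (n + 1) * y ^ (n + 1) * z ^ ((n + 1).choose 2) := by
        rw [← pow_succ, ← pow_succ, ← pow_add, e]

end class2

section coprime

variable {G : Type*} [Group G] [Finite G] {p : ℕ} [Fact p.Prime]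

/-- an automorphism of `p'`-order of a `p`-group fixes `x` as soon as it fixes `x⁻¹ * a x` -/
theorem aut_fix_of_comm_fix (hG : IsPGroup p G) (a : MulAut G) (m : ℕ) (hm : m.Coprime p)
    (ham : a ^ m = 1) (x : G) (hc : a (x⁻¹ * a x) = x⁻¹ * a x) : a x = x := by
  have key : ∀ k : ℕ, (a ^ k) x = x * (x⁻¹ * a x) ^ k := by
    intro k
    induction k with
    | zero => simp
    | succ k ih =>
      rw [pow_succ', MulAut.mul_apply, ih, map_mul, map_pow, hc, pow_succ' (x⁻¹ * a x) k,
        ← mul_assoc, ← mul_assoc, mul_inv_cancel, one_mul]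
  have h5 := key m
  rw [ham, MulAut.one_apply] at h5
  have h6 : (x⁻¹ * a x) ^ m = 1 := by
    have : x * (x⁻¹ * a x) ^ m = x * 1 := by rw [mul_one]; exact h5.symm
    exact mul_left_cancel this
  obtain ⟨j, hj⟩ := hG (x⁻¹ * a x)
  have h7 : x⁻¹ * a x = 1 := eq_one_of_pow_eq_one_of_coprime h6 hj (Nat.Coprime.pow_right j hm)
  calc a x = x * (x⁻¹ * a x) := by group
    _ = x := by rw [h7, mul_one]

theorem odd_coprime_aut_aux (hp : p ≠ 2) (hG : IsPGroup p G) (a : MulAut G) (m : ℕ)
    (hm : m.Coprime p) (ham : a ^ m = 1) (h : ∀ x : G, x ^ p = 1 → a x = x) :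
    ∀ (n : ℕ) (H : Subgroup G), Nat.card H ≤ n → (∀ x ∈ H, a x ∈ H) → ∀ x ∈ H, a x = x := by
  intro n
  induction n with
  | zero =>
    intro H hH
    have := Nat.card_pos (α := H)
    omega
  | succ n ih =>
    intro H hHn hinv
    have hpp := (Fact.out : p.Prime)
    -- the commutator subgroup [H, a]
    have hKH : Subgroup.closure {y : G | ∃ x ∈ H, y = x⁻¹ * a x} ≤ H := by
      rw [Subgroup.closure_le]
      rintro _ ⟨x, hx, rfl⟩
      exact H.mul_mem (H.inv_mem hx) (hinv x hx)
    have hKinv : ∀ y ∈ Subgroup.closure {y : G | ∃ x ∈ H, y = x⁻¹ * a x},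
        a y ∈ Subgroup.closure {y : G | ∃ x ∈ H, y = x⁻¹ * a x} := by
      have hle : (Subgroup.closure {y : G | ∃ x ∈ H, y = x⁻¹ * a x}).map a.toMonoidHom ≤
          Subgroup.closure {y : G | ∃ x ∈ H, y = x⁻¹ * a x} := by
        rw [MonoidHom.map_closure, Subgroup.closure_le]
        rintro _ ⟨_, ⟨x, hx, rfl⟩, rfl⟩
        apply Subgroup.subset_closure
        refine ⟨a x, hinv x hx, ?_⟩
        show a (x⁻¹ * a x) = (a x)⁻¹ * a (a x)
        rw [map_mul, map_inv]
      intro y hy
      exact hle ⟨y, hy, rfl⟩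
    by_cases hK : Subgroup.closure {y : G | ∃ x ∈ H, y = x⁻¹ * a x} = H
    · -- [H, a] = H
      by_cases hbot : H = ⊥
      · intro x hx
        rw [hbot, Subgroup.mem_bot] at hx
        rw [hx, map_one]
      have hMH : Subgroup.closure ({y : G | ∃ u ∈ H, ∃ v ∈ H, y = ⁅u, v⁆} ∪
          {y : G | ∃ u ∈ H, y = u ^ p}) ≤ H := by
        rw [Subgroup.closure_le]
        rintro _ (⟨u, hu, v, hv, rfl⟩ | ⟨u, hu, rfl⟩)
        · rw [SetLike.mem_coe, commutatorElement_def]
          exact H.mul_mem (H.mul_mem (H.mul_mem hu hv) (H.inv_mem hu)) (H.inv_mem hv)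
        · exact H.pow_mem hu p
      have hMinv : ∀ y ∈ Subgroup.closure ({y : G | ∃ u ∈ H, ∃ v ∈ H, y = ⁅u, v⁆} ∪
          {y : G | ∃ u ∈ H, y = u ^ p}), a y ∈ Subgroup.closure
            ({y : G | ∃ u ∈ H, ∃ v ∈ H, y = ⁅u, v⁆} ∪ {y : G | ∃ u ∈ H, y = u ^ p}) := by
        have hle : (Subgroup.closure ({y : G | ∃ u ∈ H, ∃ v ∈ H, y = ⁅u, v⁆} ∪
            {y : G | ∃ u ∈ H, y = u ^ p})).map a.toMonoidHom ≤ Subgroup.closure
              ({y : G | ∃ u ∈ H, ∃ v ∈ H, y = ⁅u, v⁆} ∪ {y : G | ∃ u ∈ H, y = u ^ p}) := by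
          rw [MonoidHom.map_closure, Subgroup.closure_le]
          rintro _ ⟨_, (⟨u, hu, v, hv, rfl⟩ | ⟨u, hu, rfl⟩), rfl⟩
          · apply Subgroup.subset_closure
            left
            refine ⟨a u, hinv u hu, a v, hinv v hv, ?_⟩
            show a ⁅u, v⁆ = ⁅a u, a v⁆
            rw [map_commutatorElement]
          · apply Subgroup.subset_closure
            right
            refine ⟨a u, hinv u hu, ?_⟩
            show a (u ^ p) = (a u) ^ p
            rw [map_pow]
        intro y hy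
        exact hle ⟨y, hy, rfl⟩
      have hMnorm : ∀ g ∈ H, ∀ y ∈ Subgroup.closure ({y : G | ∃ u ∈ H, ∃ v ∈ H, y = ⁅u, v⁆} ∪
          {y : G | ∃ u ∈ H, y = u ^ p}), g * y * g⁻¹ ∈ Subgroup.closure
            ({y : G | ∃ u ∈ H, ∃ v ∈ H, y = ⁅u, v⁆} ∪ {y : G | ∃ u ∈ H, y = u ^ p}) := by
        intro g hg
        have hle : (Subgroup.closure ({y : G | ∃ u ∈ H, ∃ v ∈ H, y = ⁅u, v⁆} ∪
            {y : G | ∃ u ∈ H, y = u ^ p})).map (MulAut.conj g).toMonoidHom ≤ Subgroup.closure
              ({y : G | ∃ u ∈ H, ∃ v ∈ H, y = ⁅u, v⁆} ∪ {y : G | ∃ u ∈ H, y = u ^ p}) := by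
          rw [MonoidHom.map_closure, Subgroup.closure_le]
          rintro _ ⟨_, (⟨u, hu, v, hv, rfl⟩ | ⟨u, hu, rfl⟩), rfl⟩
          · apply Subgroup.subset_closure
            left
            refine ⟨g * u * g⁻¹, H.mul_mem (H.mul_mem hg hu) (H.inv_mem hg),
              g * v * g⁻¹, H.mul_mem (H.mul_mem hg hv) (H.inv_mem hg), ?_⟩
            show g * ⁅u, v⁆ * g⁻¹ = ⁅g * u * g⁻¹, g * v * g⁻¹⁆
            simp only [commutatorElement_def]; group
          · apply Subgroup.subset_closure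
            right
            refine ⟨g * u * g⁻¹, H.mul_mem (H.mul_mem hg hu) (H.inv_mem hg), ?_⟩
            show g * u ^ p * g⁻¹ = (g * u * g⁻¹) ^ p
            rw [conj_pow]
        intro y hy
        exact hle ⟨y, hy, rfl⟩
      have hMne : Subgroup.closure ({y : G | ∃ u ∈ H, ∃ v ∈ H, y = ⁅u, v⁆} ∪
          {y : G | ∃ u ∈ H, y = u ^ p}) ≠ H := by
        intro hMeq
        apply hbot
        have hle : Subgroup.closure ({y : G | ∃ u ∈ H, ∃ v ∈ H, y = ⁅u, v⁆} ∪
            {y : G | ∃ u ∈ H, y = u ^ p}) ≤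
            ((⊥ : Subgroup ↥H) ⊔ ⁅(⊤ : Subgroup ↥H), (⊤ : Subgroup ↥H)⁆ ⊔
              Subgroup.closure {x : ↥H | ∃ d ∈ (⊤ : Subgroup ↥H), x = d ^ p}).map H.subtype := by
          rw [Subgroup.closure_le]
          rintro _ (⟨u, hu, v, hv, rfl⟩ | ⟨u, hu, rfl⟩)
          · exact ⟨⁅(⟨u, hu⟩ : ↥H), ⟨v, hv⟩⁆, Subgroup.mem_sup_left (Subgroup.mem_sup_right
              (Subgroup.commutator_mem_commutator (Subgroup.mem_top _) (Subgroup.mem_top _))), rfl⟩
          · exact ⟨(⟨u, hu⟩ : ↥H) ^ p, Subgroup.mem_sup_right (Subgroup.subset_closure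
              ⟨⟨u, hu⟩, Subgroup.mem_top _, rfl⟩), rfl⟩
        have h1 := Cfsg.Agent.Lib.Helper1.Tr.pgroup_le_of_le_sup (p := p) (hG.to_subgroup H)
          (⊥ : Subgroup ↥H) (⊤ : Subgroup ↥H) (by
            intro x _
            obtain ⟨y, hy, hyx⟩ := hle (by rw [hMeq]; exact x.2)
            have : y = x := Subtype.ext hyx
            rw [← this]; exact hy)
        rw [eq_bot_iff]
        intro x hx
        have h2 := h1 (Subgroup.mem_top (⟨x, hx⟩ : ↥H))
        rw [Subgroup.mem_bot] at h2 ⊢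
        exact congrArg Subtype.val h2
      have hMlt : Nat.card ↥(Subgroup.closure ({y : G | ∃ u ∈ H, ∃ v ∈ H, y = ⁅u, v⁆} ∪
          {y : G | ∃ u ∈ H, y = u ^ p})) ≤ n := by
        by_contra hcon
        push Not at hcon
        exact hMne (Subgroup.eq_of_le_of_card_ge hMH (by omega))
      have hMfix := ih _ hMlt hMinv
      -- H centralizes M
      have hcent : ∀ g ∈ H, ∀ y ∈ Subgroup.closure ({y : G | ∃ u ∈ H, ∃ v ∈ H, y = ⁅u, v⁆} ∪
          {y : G | ∃ u ∈ H, y = u ^ p}), y * g = g * y := by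
        have hle : Subgroup.closure {y : G | ∃ x ∈ H, y = x⁻¹ * a x} ≤
            Subgroup.centralizer ((Subgroup.closure ({y : G | ∃ u ∈ H, ∃ v ∈ H, y = ⁅u, v⁆} ∪
              {y : G | ∃ u ∈ H, y = u ^ p}) : Subgroup G) : Set G) := by
          rw [Subgroup.closure_le]
          rintro _ ⟨x, hx, rfl⟩
          rw [SetLike.mem_coe, Subgroup.mem_centralizer_iff]
          intro y hy
          have h4 : a (x * y * x⁻¹) = x * y * x⁻¹ := hMfix _ (hMnorm x hx y hy)
          rw [map_mul, map_mul, map_inv, hMfix y hy] at h4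
          calc y * (x⁻¹ * a x) = x⁻¹ * (x * y * x⁻¹) * a x := by group
            _ = x⁻¹ * (a x * y * (a x)⁻¹) * a x := by rw [h4]
            _ = x⁻¹ * a x * y := by group
        intro g hg y hy
        have hg' : g ∈ Subgroup.closure {y : G | ∃ x ∈ H, y = x⁻¹ * a x} := by rw [hK]; exact hg
        exact Subgroup.mem_centralizer_iff.1 (hle hg') y hy
      -- the power map is multiplicative on H
      have hpow : ∀ u ∈ H, ∀ v ∈ H, (u * v) ^ p = u ^ p * v ^ p := by
        intro u hu v hv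
        have hzM : ⁅v, u⁆ ∈ Subgroup.closure ({y : G | ∃ u ∈ H, ∃ v ∈ H, y = ⁅u, v⁆} ∪
            {y : G | ∃ u ∈ H, y = u ^ p}) :=
          Subgroup.subset_closure (Or.inl ⟨v, hv, u, hu, rfl⟩)
        have hzu : Commute ⁅v, u⁆ u := hcent u hu _ hzM
        have hzv : Commute ⁅v, u⁆ v := hcent v hv _ hzM
        have hvu : v * u = ⁅v, u⁆ * u * v := by rw [commutatorElement_def]; group
        have hzp : ⁅v, u⁆ ^ p = 1 := by
          have h1 := pow_mul_comm_aux u v ⁅v, u⁆ hvu hzu hzv p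
          have hvp : v ^ p ∈ Subgroup.closure ({y : G | ∃ u ∈ H, ∃ v ∈ H, y = ⁅u, v⁆} ∪
              {y : G | ∃ u ∈ H, y = u ^ p}) :=
            Subgroup.subset_closure (Or.inr ⟨v, hv, rfl⟩)
          have h2 : v ^ p * u = u * v ^ p := hcent u hu _ hvp
          rw [h2] at h1
          have h3 : u * v ^ p * 1 = u * v ^ p * ⁅v, u⁆ ^ p := by rw [mul_one]; exact h1
          exact (mul_left_cancel h3).symm
        have hdvd : p ∣ p.choose 2 := by
          apply hpp.dvd_choose_self (by norm_num)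
          have := hpp.two_le
          omega
        obtain ⟨k, hk⟩ := hdvd
        rw [class2_mul_pow u v ⁅v, u⁆ hvu hzu hzv p, hk, pow_mul, hzp, one_pow, mul_one]
      intro x hx
      apply aut_fix_of_comm_fix hG a m hm ham
      apply h
      rw [hpow _ (H.inv_mem hx) _ (hinv x hx), ← map_pow, inv_pow]
      have hxp : x ^ p ∈ Subgroup.closure ({y : G | ∃ u ∈ H, ∃ v ∈ H, y = ⁅u, v⁆} ∪
          {y : G | ∃ u ∈ H, y = u ^ p}) :=
        Subgroup.subset_closure (Or.inr ⟨x, hx, rfl⟩)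
      rw [hMfix _ hxp, inv_mul_cancel]
    · -- [H, a] < H
      have hKlt : Nat.card ↥(Subgroup.closure {y : G | ∃ x ∈ H, y = x⁻¹ * a x}) ≤ n := by
        by_contra hcon
        push Not at hcon
        exact hK (Subgroup.eq_of_le_of_card_ge hKH (by omega))
      have hKfix := ih _ hKlt hKinv
      intro x hx
      apply aut_fix_of_comm_fix hG a m hm ham
      exact hKfix _ (Subgroup.subset_closure ⟨x, hx, rfl⟩)

theorem odd_coprime_aut_trivial (hp : p ≠ 2) (hG : IsPGroup p G) (a : MulAut G)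
    (ha : Nat.Coprime (orderOf a) p) (h : ∀ x : G, x ^ p = 1 → a x = x) : a = 1 := by
  ext g
  show a g = g
  exact odd_coprime_aut_aux hp hG a (orderOf a) ha (pow_orderOf_eq_one a) h (Nat.card G) ⊤
    (by rw [Subgroup.card_top]) (fun x _ => Subgroup.mem_top _) g (Subgroup.mem_top g)

end coprime

end Cfsg.Agent.Lib.Helper1.CoprimeAut
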