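import Cfsg.Agent.Lib.Lead.Extraspecial
import Mathlib

set_option autoImplicit false

namespace Cfsg.Agent.Lib.Helper1.ESTwo

open scoped commutatorElement
open Cfsg.Agent.Lib.Lead.Extraspecial

universe u v

section Basic

variable {Q : Type*} [Group Q] {z : Q}

theorem z_sq (hG : Good 2 Q z) : z ^ 2 = 1 := hG.2.1

theorem z_inv (hG : Good 2 Q z) : z⁻¹ = z := by
  have h := hG.inv_eq
  simpa using h

theorem z_pow (hG : Good 2 Q z) (k : ℕ) : z ^ k = 1 ∨ z ^ k = z := by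
  rcases Nat.even_or_odd' k with ⟨m, rfl | rfl⟩
  · left; rw [pow_mul, z_sq hG, one_pow]
  · right; rw [pow_succ, pow_mul, z_sq hG, one_pow, one_mul]

theorem comm_cases (hG : Good 2 Q z) (g h : Q) : ⁅g, h⁆ = 1 ∨ ⁅g, h⁆ = z := by
  obtain ⟨k, hk⟩ := hG.2.2.2.2 g h
  rw [hk]; exact z_pow hG k

theorem sq_central (hG : Good 2 Q z) (g h : Q) : g ^ 2 * h = h * g ^ 2 := by
  have h1 : ⁅g ^ 2, h⁆ = 1 := by
    rw [comm_pow_left hG.central]
    rcases comm_cases hG g h with h | h <;> rw [h]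
    · simp
    · exact z_sq hG
  exact (commutatorElement_eq_one_iff_mul_comm.1 h1)

theorem sq_cases (hG : Good 2 Q z) (g : Q) : g ^ 2 = 1 ∨ g ^ 2 = z := by
  obtain ⟨k, hk⟩ := hG.2.2.2.1 (g ^ 2) (sq_central hG g)
  rw [hk]; exact z_pow hG k

theorem swap_pair (hG : Good 2 Q z) {x y : Q} (hxy : ⁅x, y⁆ = z) : ⁅y, x⁆ = z := by
  rw [← commutatorElement_inv, hxy, z_inv hG]

theorem mul_sq (hG : Good 2 Q z) {x y : Q} (hxy : ⁅x, y⁆ = z) :
    (x * y) ^ 2 = x ^ 2 * y ^ 2 * z := by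
  have hyx : y * x = z * (x * y) := by
    rw [← swap_pair hG hxy]; simp [commutatorElement_def]
  calc (x * y) ^ 2 = x * (y * x) * y := by rw [pow_two]; group
    _ = x * (z * (x * y)) * y := by rw [hyx]
    _ = (x * z) * x * y * y := by group
    _ = (z * x) * x * y * y := by rw [hG.2.2.1 x]
    _ = z * (x ^ 2 * y ^ 2) := by simp only [pow_two, mul_assoc]
    _ = x ^ 2 * y ^ 2 * z := hG.2.2.1 _

/-- A dihedral pair. -/
def DPair (z x y : Q) : Prop := ⁅x, y⁆ = z ∧ x ^ 2 = 1 ∧ y ^ 2 = 1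

/-- A quaternion pair. -/
def QPair (z x y : Q) : Prop := ⁅x, y⁆ = z ∧ x ^ 2 = z ∧ y ^ 2 = z

theorem dpair_of_left (hG : Good 2 Q z) {x y : Q} (hxy : ⁅x, y⁆ = z) (hx : x ^ 2 = 1) :
    ∃ x' y' : Q, DPair z x' y' := by
  rcases sq_cases hG y with hy | hy
  · exact ⟨x, y, hxy, hx, hy⟩
  · refine ⟨x, x * y, ?_, hx, ?_⟩
    · rw [comm_mul_right hG.central, commutatorElement_self, one_mul, hxy]
    · rw [mul_sq hG hxy, hx, hy, one_mul, ← pow_two, z_sq hG]

theorem dpair_of_right (hG : Good 2 Q z) {x y : Q} (hxy : ⁅x, y⁆ = z) (hy : y ^ 2 = 1) :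
    ∃ x' y' : Q, DPair z x' y' := dpair_of_left hG (swap_pair hG hxy) hy

theorem pair_cases (hG : Good 2 Q z) {x y : Q} (hxy : ⁅x, y⁆ = z) :
    (∃ x' y' : Q, DPair z x' y') ∨ QPair z x y := by
  rcases sq_cases hG x with hx | hx
  · exact Or.inl (dpair_of_left hG hxy hx)
  · rcases sq_cases hG y with hy | hy
    · exact Or.inl (dpair_of_right hG hxy hy)
    · exact Or.inr ⟨hxy, hx, hy⟩

theorem pow_two_div (g : Q) (a : ℕ) : g ^ a = g ^ (a % 2) * (g ^ 2) ^ (a / 2) := by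
  conv_lhs => rw [← Nat.mod_add_div a 2, pow_add, pow_mul]

theorem sq_mem_cen (hG : Good 2 Q z) (x y g : Q) : g ^ 2 ∈ cen x y := by
  rw [mem_cen]
  exact ⟨(sq_central hG g x).symm, (sq_central hG g y).symm⟩

theorem normal_form (hG : Good 2 Q z) {x y : Q} (α β : ℕ) (hx : x ^ 2 = z ^ α)
    (hy : y ^ 2 = z ^ β) (a b : ℕ) (c : Q) :
    x ^ a * y ^ b * c =
      x ^ (a % 2) * y ^ (b % 2) * (z ^ (α * (a / 2) + β * (b / 2)) * c) := by
  have hz : ∀ (k : ℕ) (g : Q), z ^ k * g = g * z ^ k :=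
    fun k g => ((Commute.pow_left (hG.2.2.1 g) k)).eq
  rw [pow_two_div x a, pow_two_div y b, hx, hy, ← pow_mul, ← pow_mul, pow_add]
  calc x ^ (a % 2) * z ^ (α * (a / 2)) * (y ^ (b % 2) * z ^ (β * (b / 2))) * c
      = x ^ (a % 2) * (z ^ (α * (a / 2)) * y ^ (b % 2)) * z ^ (β * (b / 2)) * c := by
        simp only [mul_assoc]
    _ = x ^ (a % 2) * (y ^ (b % 2) * z ^ (α * (a / 2))) * z ^ (β * (b / 2)) * c := by rw [hz]
    _ = _ := by simp only [mul_assoc]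

theorem decomp_surj2 (hG : Good 2 Q z) {x y : Q} (hxy : ⁅x, y⁆ = z) (g : Q) :
    ∃ a b : Fin 2, ∃ c ∈ cen x y, g = x ^ (a : ℕ) * y ^ (b : ℕ) * c := by
  obtain ⟨a, b, c, hc, rfl⟩ := decomp_surj hG hxy g
  obtain ⟨i, hi⟩ : ∃ i : ℕ, x ^ 2 = z ^ i := by
    rcases sq_cases hG x with h | h
    · exact ⟨0, by rw [h, pow_zero]⟩
    · exact ⟨1, by rw [h, pow_one]⟩
  obtain ⟨j, hj⟩ : ∃ j : ℕ, y ^ 2 = z ^ j := by
    rcases sq_cases hG y with h | h
    · exact ⟨0, by rw [h, pow_zero]⟩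
    · exact ⟨1, by rw [h, pow_one]⟩
  refine ⟨⟨a % 2, Nat.mod_lt _ (by norm_num)⟩, ⟨b % 2, Nat.mod_lt _ (by norm_num)⟩,
    z ^ (i * (a / 2) + j * (b / 2)) * c, ?_, ?_⟩
  · exact Subgroup.mul_mem _ (Subgroup.pow_mem _ (z_mem_cen hG) _) hc
  · exact normal_form hG i j hi hj a b c

theorem decomp_bij (hG : Good 2 Q z) {x y : Q} (hxy : ⁅x, y⁆ = z) :
    Function.Bijective
      (fun m : Fin 2 × Fin 2 × cen x y => x ^ (m.1 : ℕ) * y ^ (m.2.1 : ℕ) * m.2.2.1) := by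
  have hzo := hG.orderOf
  constructor
  · rintro ⟨a, b, c⟩ ⟨a', b', c'⟩ h
    have h' : x ^ (a : ℕ) * y ^ (b : ℕ) * c.1 = x ^ (a' : ℕ) * y ^ (b' : ℕ) * c'.1 := h
    obtain ⟨h1, h2⟩ := decomp_inj hG hxy a b a' b' c.1 c'.1 c.2 c'.2 h'
    rw [pow_eq_pow_iff_modEq, hzo] at h1 h2
    have ha : (a : ℕ) = a' := Nat.ModEq.eq_of_lt_of_lt h1 a.2 a'.2
    have hb : (b : ℕ) = b' := Nat.ModEq.eq_of_lt_of_lt h2 b.2 b'.2
    rw [ha, hb] at h'
    have hc : c.1 = c'.1 := mul_left_cancel h'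
    exact Prod.ext (Fin.ext ha) (Prod.ext (Fin.ext hb) (Subtype.ext hc))
  · intro g
    obtain ⟨a, b, c, hc, rfl⟩ := decomp_surj2 hG hxy g
    exact ⟨(a, b, ⟨c, hc⟩), rfl⟩

theorem card_eq4 [Finite Q] (hG : Good 2 Q z) {x y : Q} (hxy : ⁅x, y⁆ = z) :
    Nat.card Q = 4 * Nat.card (cen x y) := by
  rw [← Nat.card_congr (Equiv.ofBijective _ (decomp_bij hG hxy)), Nat.card_prod, Nat.card_prod,
    Nat.card_fin]
  ring

theorem sq_decomp {x y c : Q} (hc : c ∈ cen x y) (a b : ℕ) :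
    (x ^ a * y ^ b * c) ^ 2 = (x ^ a * y ^ b) ^ 2 * c ^ 2 := by
  have h1 : Commute (x ^ a * y ^ b) c :=
    ((show Commute x c from ((mem_cen c).1 hc).1).pow_left a).mul_left
      ((show Commute y c from ((mem_cen c).1 hc).2).pow_left b)
  exact h1.mul_pow 2

theorem count_sum [Finite Q] (hG : Good 2 Q z) {x y : Q} (hxy : ⁅x, y⁆ = z) :
    Nat.card {g : Q // g ^ 2 = 1} =
      ∑ a : Fin 2, ∑ b : Fin 2,
        Nat.card {c : cen x y // (x ^ (a : ℕ) * y ^ (b : ℕ)) ^ 2 * (c : Q) ^ 2 = 1} := by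
  let φ : Fin 2 × Fin 2 × cen x y → Q := fun m => x ^ (m.1 : ℕ) * y ^ (m.2.1 : ℕ) * m.2.2.1
  let e : Fin 2 × Fin 2 × cen x y ≃ Q := Equiv.ofBijective φ (decomp_bij hG hxy)
  have h1 : Nat.card {g : Q // g ^ 2 = 1} =
      Nat.card {m : Fin 2 × Fin 2 × cen x y // (φ m) ^ 2 = 1} :=
    (Nat.card_congr (Equiv.subtypeEquiv e (fun m => Iff.rfl))).symm
  rw [h1]
  have h2 : Nat.card {m : Fin 2 × Fin 2 × cen x y // (φ m) ^ 2 = 1} =
      Nat.card (Σ a : Fin 2, {m : Fin 2 × cen x y // (φ (a, m)) ^ 2 = 1}) :=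
    Nat.card_congr (Equiv.subtypeProdEquivSigmaSubtype (fun a m => (φ (a, m)) ^ 2 = 1))
  rw [h2, Nat.card_sigma]
  refine Finset.sum_congr rfl (fun a _ => ?_)
  have h3 : Nat.card {m : Fin 2 × cen x y // (φ (a, m)) ^ 2 = 1} =
      Nat.card (Σ b : Fin 2, {c : cen x y // (φ (a, b, c)) ^ 2 = 1}) :=
    Nat.card_congr (Equiv.subtypeProdEquivSigmaSubtype (fun b c => (φ (a, b, c)) ^ 2 = 1))
  rw [h3, Nat.card_sigma]
  refine Finset.sum_congr rfl (fun b _ => ?_)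
  refine Nat.card_congr (Equiv.subtypeEquivRight (fun c => ?_))
  show (x ^ (a : ℕ) * y ^ (b : ℕ) * c.1) ^ 2 = 1 ↔ _
  rw [sq_decomp c.2]

theorem card_sq_coe (C : Subgroup Q) :
    Nat.card {c : C // (c : Q) ^ 2 = 1} = Nat.card {c : C // c ^ 2 = 1} :=
  Nat.card_congr (Equiv.subtypeEquivRight (fun c =>
    ⟨fun h => Subtype.ext (by simpa using h), fun h => by simpa using congrArg Subtype.val h⟩))

theorem card_sq_z [Finite Q] (hG : Good 2 Q z) (C : Subgroup Q) :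
    Nat.card {c : C // (c : Q) ^ 2 = 1} + Nat.card {c : C // z * (c : Q) ^ 2 = 1} =
      Nat.card C := by
  classical
  have e1 : {c : C // z * (c : Q) ^ 2 = 1} ≃ {c : C // ¬ ((c : Q) ^ 2 = 1)} :=
    Equiv.subtypeEquivRight (fun c => by
      constructor
      · intro h h1
        rw [h1, mul_one] at h
        exact hG.1 h
      · intro h
        rcases sq_cases hG (c : Q) with h1 | h1
        · exact absurd h1 h
        · rw [h1, ← pow_two, z_sq hG])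
  rw [Nat.card_congr e1, ← Nat.card_sum]
  exact Nat.card_congr (Equiv.sumCompl _)

theorem count_D [Finite Q] (hG : Good 2 Q z) {x y : Q} (h : DPair z x y) :
    Nat.card {g : Q // g ^ 2 = 1} =
      2 * Nat.card {c : cen x y // c ^ 2 = 1} + Nat.card (cen x y) := by
  have h1 := count_sum hG h.1
  have h2 := card_sq_z hG (cen x y)
  have h3 := card_sq_coe (cen x y)
  rw [Fin.sum_univ_two, Fin.sum_univ_two, Fin.sum_univ_two] at h1
  simp only [Fin.val_zero, Fin.val_one, pow_zero, pow_one, one_mul, mul_one, one_pow, h.2.1,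
    h.2.2, mul_sq hG h.1] at h1
  omega

theorem count_Q [Finite Q] (hG : Good 2 Q z) {x y : Q} (h : QPair z x y) :
    Nat.card {g : Q // g ^ 2 = 1} + 2 * Nat.card {c : cen x y // c ^ 2 = 1} =
      3 * Nat.card (cen x y) := by
  have h1 := count_sum hG h.1
  have h2 := card_sq_z hG (cen x y)
  have h3 := card_sq_coe (cen x y)
  have hzz : z * z = 1 := by rw [← pow_two]; exact z_sq hG
  rw [Fin.sum_univ_two, Fin.sum_univ_two, Fin.sum_univ_two] at h1
  simp only [Fin.val_zero, Fin.val_one, pow_zero, pow_one, one_mul, mul_one, one_pow, h.2.1,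
    h.2.2, mul_sq hG h.1, hzz] at h1
  omega

theorem count_abelian [Finite Q] (hG : Good 2 Q z) (hab : ∀ g h : Q, g * h = h * g) :
    Nat.card {g : Q // g ^ 2 = 1} = 2 := by
  refine (Nat.card_congr (Equiv.subtypeUnivEquiv (fun g => ?_))).trans (card_of_abelian hG hab)
  obtain ⟨k, hk⟩ := hG.2.2.2.1 g (hab g)
  rw [hk, ← pow_mul, mul_comm, pow_mul, z_sq hG, one_pow]

theorem exists_dpair [Finite Q] (hG : Good 2 Q z) (h2 : Nat.card Q ≠ 2) (h8 : Nat.card Q ≠ 8) :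
    ∃ x y : Q, DPair z x y := by
  have hab : ¬ ∀ g h : Q, g * h = h * g := fun h => h2 (card_of_abelian hG h)
  obtain ⟨x, y, hxy⟩ := exists_pair hG hab
  rcases pair_cases hG hxy with hD | hQ
  · exact hD
  · have hC := good_cen hG hQ.1
    have hcard := card_eq4 hG hQ.1
    have habC : ¬ ∀ g h : cen x y, g * h = h * g := by
      intro h
      have := card_of_abelian hC h
      omega
    obtain ⟨u, v, huv⟩ := exists_pair hC habC
    have huv' : ⁅u.1, v.1⁆ = z := by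
      have := congrArg Subtype.val huv
      simpa [commutatorElement_def] using this
    rcases sq_cases hG u.1 with hu | hu
    · exact dpair_of_left hG huv' hu
    · have h1 : ⁅x * u.1, y⁆ = z := by
        rw [comm_mul_left hG.central, hQ.1, ((mem_cen_iff_comm u.1).1 u.2).2, mul_one]
      have h2 : (x * u.1) ^ 2 = 1 := by
        have hc : Commute x u.1 := ((mem_cen u.1).1 u.2).1
        rw [hc.mul_pow, hQ.2.1, hu, ← pow_two, z_sq hG]
      exact dpair_of_left hG h1 h2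

end Basic

end Cfsg.Agent.Lib.Helper1.ESTwo
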