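import Cfsg.Agent.Lib.Helper1.ESTwoA
import Mathlib

set_option autoImplicit false

namespace Cfsg.Agent.Lib.Helper1.ESTwo

open scoped commutatorElement
open Cfsg.Agent.Lib.Lead.Extraspecial

universe u v

/-- Order and involution count of a `Good 2` group. -/
theorem card_and_count : ∀ (n : ℕ) (Q : Type u) [Group Q] [Finite Q] (z : Q), Good 2 Q z →
    Nat.card Q = n →
    ∃ m : ℕ, n = 2 * (2 ^ m) ^ 2 ∧
      (Nat.card {g : Q // g ^ 2 = 1} = (2 ^ m) ^ 2 + 2 ^ m ∨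
        Nat.card {g : Q // g ^ 2 = 1} + 2 ^ m = (2 ^ m) ^ 2) := by
  intro n
  induction n using Nat.strong_induction_on with
  | _ n ih =>
    intro Q _ _ z hG hn
    by_cases hab : ∀ g h : Q, g * h = h * g
    · refine ⟨0, ?_, Or.inl ?_⟩
      · rw [← hn, card_of_abelian hG hab]; norm_num
      · rw [count_abelian hG hab]; norm_num
    · obtain ⟨x, y, hxy⟩ := exists_pair hG hab
      have hpos : ∀ (x y : Q), 0 < Nat.card (cen x y) := fun x y => Nat.card_pos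
      rcases pair_cases hG hxy with ⟨x', y', hD⟩ | hQ
      · have hC := good_cen hG hD.1
        have hcard := card_eq4 hG hD.1
        have hp := hpos x' y'
        obtain ⟨k, hk, hN⟩ := ih (Nat.card (cen x' y')) (by omega) (cen x' y') _ hC rfl
        have hc := count_D hG hD
        refine ⟨k + 1, ?_, ?_⟩
        · rw [← hn, hcard, hk, pow_succ]; ring
        · have e : (2 : ℕ) ^ (k + 1) = 2 * 2 ^ k := by rw [pow_succ]; ring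
          rw [e]
          rcases hN with hN | hN
          · left; rw [hc, hN, hk]; ring
          · right; rw [hc, hk]
            have : 2 * Nat.card {c : cen x' y' // c ^ 2 = 1} + 2 * 2 ^ k = 2 * (2 ^ k) ^ 2 := by
              rw [← hN]; ring
            nlinarith [this]
      · have hC := good_cen hG hQ.1
        have hcard := card_eq4 hG hQ.1
        have hp := hpos x y
        obtain ⟨k, hk, hN⟩ := ih (Nat.card (cen x y)) (by omega) (cen x y) _ hC rfl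
        have hc := count_Q hG hQ
        refine ⟨k + 1, ?_, ?_⟩
        · rw [← hn, hcard, hk, pow_succ]; ring
        · have e : (2 : ℕ) ^ (k + 1) = 2 * 2 ^ k := by rw [pow_succ]; ring
          rw [e]
          rw [hk] at hc
          rcases hN with hN | hN
          · right
            rw [hN] at hc
            nlinarith [hc]
          · left
            have h1 : 2 * Nat.card {c : cen x y // c ^ 2 = 1} + 2 * 2 ^ k = 2 * (2 ^ k) ^ 2 := by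
              rw [← hN]; ring
            nlinarith [hc, h1]

/-- The inductive step of the isomorphism theorem, with prescribed squares. -/
theorem step_iso_gen {Q₁ : Type*} {Q₂ : Type*} [Group Q₁] [Group Q₂] [Finite Q₁] [Finite Q₂]
    {z₁ : Q₁} {z₂ : Q₂} (hG₁ : Good 2 Q₁ z₁) (hG₂ : Good 2 Q₂ z₂)
    (hcard : Nat.card Q₁ = Nat.card Q₂) {x₁ y₁ : Q₁} {x₂ y₂ : Q₂}
    (hxy₁ : ⁅x₁, y₁⁆ = z₁) (hxy₂ : ⁅x₂, y₂⁆ = z₂) (α β : ℕ)
    (hx₁ : x₁ ^ 2 = z₁ ^ α) (hy₁ : y₁ ^ 2 = z₁ ^ β) (hx₂ : x₂ ^ 2 = z₂ ^ α)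
    (hy₂ : y₂ ^ 2 = z₂ ^ β)
    (f : cen x₁ y₁ ≃* cen x₂ y₂) (hf : (f ⟨z₁, z_mem_cen hG₁⟩ : Q₂) = z₂) :
    ∃ F : Q₁ ≃* Q₂, F z₁ = z₂ := by
  let ψ₁ : ℕ × ℕ × cen x₁ y₁ → Q₁ := fun m => x₁ ^ m.1 * y₁ ^ m.2.1 * m.2.2.1
  let ψ₂ : ℕ × ℕ × cen x₁ y₁ → Q₂ := fun m => x₂ ^ m.1 * y₂ ^ m.2.1 * (f m.2.2).1
  let op : ℕ × ℕ × cen x₁ y₁ → ℕ × ℕ × cen x₁ y₁ → ℕ × ℕ × cen x₁ y₁ := fun m m' =>
    (m.1 + m'.1, m.2.1 + m'.2.1,
      ⟨z₁, z_mem_cen hG₁⟩ ^ ((2 - 1) * (m.2.1 * m'.1)) * m.2.2 * m'.2.2)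
  have hs : Function.Surjective ψ₁ := by
    intro g
    obtain ⟨a, b, c, hc, rfl⟩ := decomp_surj hG₁ hxy₁ g
    exact ⟨(a, b, ⟨c, hc⟩), rfl⟩
  have hwd : ∀ m m', ψ₁ m = ψ₁ m' → ψ₂ m = ψ₂ m' := by
    rintro ⟨a, b, c⟩ ⟨a', b', c'⟩ h
    have h' : x₁ ^ a * y₁ ^ b * c.1 = x₁ ^ a' * y₁ ^ b' * c'.1 := h
    rw [normal_form hG₁ α β hx₁ hy₁ a b c.1, normal_form hG₁ α β hx₁ hy₁ a' b' c'.1] at h'
    have hzc : ∀ (k : ℕ) (c : Q₁), c ∈ cen x₁ y₁ → z₁ ^ k * c ∈ cen x₁ y₁ := fun k c hc =>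
      Subgroup.mul_mem _ (Subgroup.pow_mem _ (z_mem_cen hG₁) k) hc
    obtain ⟨h1, h2⟩ := decomp_inj hG₁ hxy₁ (a % 2) (b % 2) (a' % 2) (b' % 2) _ _
      (hzc _ c.1 c.2) (hzc _ c'.1 c'.2) h'
    rw [pow_eq_pow_iff_modEq, hG₁.orderOf] at h1 h2
    have ha : a % 2 = a' % 2 :=
      Nat.ModEq.eq_of_lt_of_lt h1 (Nat.mod_lt _ (by norm_num)) (Nat.mod_lt _ (by norm_num))
    have hb : b % 2 = b' % 2 :=
      Nat.ModEq.eq_of_lt_of_lt h2 (Nat.mod_lt _ (by norm_num)) (Nat.mod_lt _ (by norm_num))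
    rw [ha, hb] at h'
    have hc : z₁ ^ (α * (a / 2) + β * (b / 2)) * c.1 =
        z₁ ^ (α * (a' / 2) + β * (b' / 2)) * c'.1 := mul_left_cancel h'
    have hc' : (⟨z₁, z_mem_cen hG₁⟩ : cen x₁ y₁) ^ (α * (a / 2) + β * (b / 2)) * c =
        ⟨z₁, z_mem_cen hG₁⟩ ^ (α * (a' / 2) + β * (b' / 2)) * c' :=
      Subtype.ext (by simpa using hc)
    have hf' : z₂ ^ (α * (a / 2) + β * (b / 2)) * (f c).1 =
        z₂ ^ (α * (a' / 2) + β * (b' / 2)) * (f c').1 := by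
      have h3 := congrArg (fun t => (f t).1) hc'
      simp only [map_mul, map_pow, Subgroup.coe_mul, Subgroup.coe_pow] at h3
      rw [hf] at h3
      exact h3
    show x₂ ^ a * y₂ ^ b * (f c).1 = x₂ ^ a' * y₂ ^ b' * (f c').1
    rw [normal_form hG₂ α β hx₂ hy₂ a b (f c).1, normal_form hG₂ α β hx₂ hy₂ a' b' (f c').1,
      ha, hb, hf']
  have h₁ : ∀ m m', ψ₁ (op m m') = ψ₁ m * ψ₁ m' := by
    rintro ⟨a, b, c⟩ ⟨a', b', c'⟩
    show x₁ ^ (a + a') * y₁ ^ (b + b') *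
        ((⟨z₁, z_mem_cen hG₁⟩ ^ ((2 - 1) * (b * a')) * c * c' : cen x₁ y₁) : Q₁) =
      (x₁ ^ a * y₁ ^ b * c.1) * (x₁ ^ a' * y₁ ^ b' * c'.1)
    rw [decomp_mul hG₁ hxy₁ a b a' b' c.1 c'.1 c.2]
    simp
  have h₂ : ∀ m m', ψ₂ (op m m') = ψ₂ m * ψ₂ m' := by
    rintro ⟨a, b, c⟩ ⟨a', b', c'⟩
    show x₂ ^ (a + a') * y₂ ^ (b + b') *
        (f (⟨z₁, z_mem_cen hG₁⟩ ^ ((2 - 1) * (b * a')) * c * c')).1 =
      (x₂ ^ a * y₂ ^ b * (f c).1) * (x₂ ^ a' * y₂ ^ b' * (f c').1)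
    rw [decomp_mul hG₂ hxy₂ a b a' b' (f c).1 (f c').1 (f c).2, map_mul, map_mul, map_pow]
    simp [hf]
  obtain ⟨F, hF⟩ := hom_of_param op ψ₁ ψ₂ hs hwd h₁ h₂
  have hFs : Function.Surjective F := by
    intro g
    obtain ⟨a, b, c, hc, rfl⟩ := decomp_surj hG₂ hxy₂ g
    refine ⟨ψ₁ (a, b, f.symm ⟨c, hc⟩), ?_⟩
    rw [hF]
    show x₂ ^ a * y₂ ^ b * (f (f.symm ⟨c, hc⟩)).1 = x₂ ^ a * y₂ ^ b * c
    rw [MulEquiv.apply_symm_apply]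
  have hFb : Function.Bijective F := (Nat.bijective_iff_surjective_and_card F).2 ⟨hFs, hcard⟩
  refine ⟨MulEquiv.ofBijective F hFb, ?_⟩
  show F z₁ = z₂
  have e : z₁ = ψ₁ (0, 0, ⟨z₁, z_mem_cen hG₁⟩) := by simp [ψ₁]
  rw [e, hF]
  simp [ψ₂, hf]

theorem key8 {Q : Type*} [Group Q] [Finite Q] {z : Q} (hG : Good 2 Q z) (hc : Nat.card Q = 8)
    (x y : Q) (hxy : ⁅x, y⁆ = z) : Nat.card (cen x y) = 2 ∧
      Nat.card {c : cen x y // c ^ 2 = 1} = 2 := by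
  have h1 := card_eq4 hG hxy
  have h2 : Nat.card (cen x y) = 2 := by omega
  exact ⟨h2, count_abelian (good_cen hG hxy) (abelian_of_card (good_cen hG hxy) h2)⟩

/-- `Good 2` groups of the same order with the same number of solutions of `g ^ 2 = 1` are
isomorphic, compatibly with the central involutions. -/
theorem iso_of_count : ∀ (n : ℕ) (Q₁ : Type u) (Q₂ : Type v) [Group Q₁] [Group Q₂] [Finite Q₁]
    [Finite Q₂] (z₁ : Q₁) (z₂ : Q₂), Good 2 Q₁ z₁ → Good 2 Q₂ z₂ → Nat.card Q₁ = n →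
    Nat.card Q₂ = n →
    Nat.card {g : Q₁ // g ^ 2 = 1} = Nat.card {g : Q₂ // g ^ 2 = 1} →
    ∃ F : Q₁ ≃* Q₂, F z₁ = z₂ := by
  intro n
  induction n using Nat.strong_induction_on with
  | _ n ih =>
    intro Q₁ Q₂ _ _ _ _ z₁ z₂ hG₁ hG₂ hn₁ hn₂ hN
    by_cases h2 : n = 2
    · exact cyclic_iso hG₁ hG₂ (hn₁.trans h2) (hn₂.trans h2)
    have hab₁ : ¬ ∀ g h : Q₁, g * h = h * g := fun h => h2 (hn₁ ▸ card_of_abelian hG₁ h)
    have hab₂ : ¬ ∀ g h : Q₂, g * h = h * g := fun h => h2 (hn₂ ▸ card_of_abelian hG₂ h)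
    by_cases h8 : n = 8
    · obtain ⟨x₁, y₁, hxy₁⟩ := exists_pair hG₁ hab₁
      obtain ⟨x₂, y₂, hxy₂⟩ := exists_pair hG₂ hab₂
      rcases pair_cases hG₁ hxy₁ with ⟨x₁', y₁', hD₁⟩ | hQ₁
      · rcases pair_cases hG₂ hxy₂ with ⟨x₂', y₂', hD₂⟩ | hQ₂
        · obtain ⟨k1, -⟩ := key8 hG₁ (hn₁.trans h8) x₁' y₁' hD₁.1
          obtain ⟨k2, -⟩ := key8 hG₂ (hn₂.trans h8) x₂' y₂' hD₂.1
          obtain ⟨f, hf⟩ := cyclic_iso (good_cen hG₁ hD₁.1) (good_cen hG₂ hD₂.1) k1 k2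
          exact step_iso_gen hG₁ hG₂ (hn₁.trans hn₂.symm) hD₁.1 hD₂.1 0 0
            (by rw [hD₁.2.1, pow_zero]) (by rw [hD₁.2.2, pow_zero]) (by rw [hD₂.2.1, pow_zero])
            (by rw [hD₂.2.2, pow_zero]) f (by rw [hf])
        · exfalso
          obtain ⟨k1, k1'⟩ := key8 hG₁ (hn₁.trans h8) x₁' y₁' hD₁.1
          obtain ⟨k2, k2'⟩ := key8 hG₂ (hn₂.trans h8) x₂ y₂ hQ₂.1
          have c1 := count_D hG₁ hD₁
          have c2 := count_Q hG₂ hQ₂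
          omega
      · rcases pair_cases hG₂ hxy₂ with ⟨x₂', y₂', hD₂⟩ | hQ₂
        · exfalso
          obtain ⟨k1, k1'⟩ := key8 hG₁ (hn₁.trans h8) x₁ y₁ hQ₁.1
          obtain ⟨k2, k2'⟩ := key8 hG₂ (hn₂.trans h8) x₂' y₂' hD₂.1
          have c1 := count_Q hG₁ hQ₁
          have c2 := count_D hG₂ hD₂
          omega
        · obtain ⟨k1, -⟩ := key8 hG₁ (hn₁.trans h8) x₁ y₁ hQ₁.1
          obtain ⟨k2, -⟩ := key8 hG₂ (hn₂.trans h8) x₂ y₂ hQ₂.1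
          obtain ⟨f, hf⟩ := cyclic_iso (good_cen hG₁ hQ₁.1) (good_cen hG₂ hQ₂.1) k1 k2
          exact step_iso_gen hG₁ hG₂ (hn₁.trans hn₂.symm) hQ₁.1 hQ₂.1 1 1
            (by rw [hQ₁.2.1, pow_one]) (by rw [hQ₁.2.2, pow_one]) (by rw [hQ₂.2.1, pow_one])
            (by rw [hQ₂.2.2, pow_one]) f (by rw [hf])
    · obtain ⟨x₁, y₁, hD₁⟩ := exists_dpair hG₁ (by rw [hn₁]; exact h2) (by rw [hn₁]; exact h8)
      obtain ⟨x₂, y₂, hD₂⟩ := exists_dpair hG₂ (by rw [hn₂]; exact h2) (by rw [hn₂]; exact h8)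
      have e1 := card_eq4 hG₁ hD₁.1
      have e2 := card_eq4 hG₂ hD₂.1
      have c1 := count_D hG₁ hD₁
      have c2 := count_D hG₂ hD₂
      have hp : 0 < Nat.card (cen x₁ y₁) := Nat.card_pos
      obtain ⟨f, hf⟩ := ih (Nat.card (cen x₁ y₁)) (by omega) (cen x₁ y₁) (cen x₂ y₂)
        ⟨z₁, z_mem_cen hG₁⟩ ⟨z₂, z_mem_cen hG₂⟩ (good_cen hG₁ hD₁.1) (good_cen hG₂ hD₂.1) rfl
        (by omega) (by omega)
      exact step_iso_gen hG₁ hG₂ (hn₁.trans hn₂.symm) hD₁.1 hD₂.1 0 0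
        (by rw [hD₁.2.1, pow_zero]) (by rw [hD₁.2.2, pow_zero]) (by rw [hD₂.2.1, pow_zero])
        (by rw [hD₂.2.2, pow_zero]) f (by rw [hf])

end Cfsg.Agent.Lib.Helper1.ESTwo
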