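import Cfsg.Agent.Lib.Helper1.ESTwoB
import Cfsg.Prelude.Def_CaseTheorems
import Mathlib

set_option autoImplicit false

namespace Cfsg.Agent.Lib.Helper1.ESTwo

open scoped commutatorElement
open Cfsg.Agent.Lib.Lead.Extraspecial

universe u v

/-- Explicit form of "elementary abelian 2-subgroup". -/
def EA {Q : Type*} [Group Q] (A : Subgroup Q) : Prop :=
  (∀ a ∈ A, ∀ b ∈ A, a * b = b * a) ∧ ∀ a ∈ A, a ^ 2 = 1

section Aux

variable {Q : Type*} [Group Q] {z : Q}

theorem dpair_left' (hG : Good 2 Q z) {x y : Q} (hxy : ⁅x, y⁆ = z) (hx : x ^ 2 = 1) :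
    ∃ y' : Q, DPair z x y' := by
  rcases sq_cases hG y with hy | hy
  · exact ⟨y, hxy, hx, hy⟩
  · refine ⟨x * y, ?_, hx, ?_⟩
    · rw [comm_mul_right hG.central, commutatorElement_self, one_mul, hxy]
    · rw [mul_sq hG hxy, hx, hy, one_mul, ← pow_two, z_sq hG]

theorem ea_zpowers (hG : Good 2 Q z) : EA (Subgroup.zpowers z) ∧ Nat.card (Subgroup.zpowers z) = 2 := by
  refine ⟨⟨?_, ?_⟩, ?_⟩
  · intro a ha b hb
    obtain ⟨i, rfl⟩ := Subgroup.mem_zpowers_iff.1 ha
    exact ((Commute.zpow_left (hG.2.2.1 b) i)).eq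
  · intro a ha
    obtain ⟨i, rfl⟩ := Subgroup.mem_zpowers_iff.1 ha
    rw [← zpow_natCast, ← zpow_mul, mul_comm, zpow_mul, zpow_natCast, z_sq hG, one_zpow]
  · rw [Nat.card_zpowers, hG.orderOf]

/-- Extending an elementary abelian subgroup of the centralizer of a dihedral pair. -/
theorem ea_extend [Finite Q] (hG : Good 2 Q z) {x y : Q} (hD : DPair z x y)
    (B : Subgroup (cen x y)) (hB : EA B) :
    ∃ A : Subgroup Q, EA A ∧ 2 * Nat.card B ≤ Nat.card A := by
  have hxc : ∀ c : cen x y, Commute x c.1 := fun c => ((mem_cen c.1).1 c.2).1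
  have hxi : ∀ i : ℕ, (x ^ i)⁻¹ = x ^ i := by
    intro i
    rw [inv_eq_iff_mul_eq_one, ← pow_add, ← two_mul, pow_mul, hD.2.1, one_pow]
  let A : Subgroup Q :=
    { carrier := {g | ∃ i : ℕ, ∃ c : cen x y, c ∈ B ∧ g = x ^ i * c.1}
      one_mem' := ⟨0, 1, B.one_mem, by simp⟩
      mul_mem' := by
        rintro _ _ ⟨i, c, hc, rfl⟩ ⟨j, c', hc', rfl⟩
        refine ⟨i + j, c * c', B.mul_mem hc hc', ?_⟩
        have h1 : c.1 * x ^ j = x ^ j * c.1 := ((hxc c).pow_left j).eq.symm
        calc x ^ i * c.1 * (x ^ j * c'.1) = x ^ i * (c.1 * x ^ j) * c'.1 := by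
              simp only [mul_assoc]
          _ = x ^ i * (x ^ j * c.1) * c'.1 := by rw [h1]
          _ = x ^ (i + j) * (c * c' : cen x y).1 := by
              rw [pow_add]; simp only [Subgroup.coe_mul, mul_assoc]
      inv_mem' := by
        rintro _ ⟨i, c, hc, rfl⟩
        refine ⟨i, c⁻¹, B.inv_mem hc, ?_⟩
        have h1 : c.1⁻¹ * x ^ i = x ^ i * c.1⁻¹ :=
          (((hxc c).pow_left i).inv_right).eq.symm
        rw [mul_inv_rev, hxi, h1]; simp }
  have hmem : ∀ g : Q, g ∈ A ↔ ∃ i : ℕ, ∃ c : cen x y, c ∈ B ∧ g = x ^ i * c.1 := fun g => Iff.rfl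
  refine ⟨A, ⟨?_, ?_⟩, ?_⟩
  · intro g hg g' hg'
    obtain ⟨i, c, hc, rfl⟩ := (hmem g).1 hg
    obtain ⟨j, c', hc', rfl⟩ := (hmem g').1 hg'
    have h1 : Commute (x ^ i) (x ^ j) := (Commute.refl x).pow_pow i j
    have h2 : Commute (x ^ i) c'.1 := (hxc c').pow_left i
    have h3 : Commute c.1 (x ^ j) := ((hxc c).pow_left j).symm
    have h4 : Commute c.1 c'.1 := by
      have := hB.1 c hc c' hc'
      exact congrArg Subtype.val this
    exact ((h1.mul_right h2).mul_left (h3.mul_right h4)).eq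
  · intro g hg
    obtain ⟨i, c, hc, rfl⟩ := (hmem g).1 hg
    have h2 : Commute (x ^ i) c.1 := (hxc c).pow_left i
    have h5 : c.1 ^ 2 = 1 := by
      have := hB.2 c hc
      simpa using congrArg Subtype.val this
    rw [h2.mul_pow, h5, ← pow_mul, mul_comm, pow_mul, hD.2.1, one_pow, one_mul]
  · have hinj : Function.Injective (fun m : Fin 2 × B =>
        (⟨x ^ (m.1 : ℕ) * m.2.1.1, (hmem _).2 ⟨m.1, m.2.1, m.2.2, rfl⟩⟩ : A)) := by
      rintro ⟨i, c⟩ ⟨j, c'⟩ h
      have h' : x ^ (i : ℕ) * c.1.1 = x ^ (j : ℕ) * c'.1.1 := congrArg Subtype.val h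
      have h'' : x ^ (i : ℕ) * y ^ 0 * c.1.1 = x ^ (j : ℕ) * y ^ 0 * c'.1.1 := by
        simpa using h'
      obtain ⟨h1, -⟩ := decomp_inj hG hD.1 i 0 j 0 c.1.1 c'.1.1 c.1.2 c'.1.2 h''
      rw [pow_eq_pow_iff_modEq, hG.orderOf] at h1
      have hij : (i : ℕ) = j := Nat.ModEq.eq_of_lt_of_lt h1 i.2 j.2
      rw [hij] at h'
      have hc : c.1.1 = c'.1.1 := mul_left_cancel h'
      exact Prod.ext (Fin.ext hij) (Subtype.ext (Subtype.ext hc))
    have := Nat.card_le_card_of_injective _ hinj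
    rwa [Nat.card_prod, Nat.card_fin] at this

end Aux

/-- Upper bound for elementary abelian subgroups, with the equality case. -/
theorem ea_card_le : ∀ (n : ℕ) (Q : Type u) [Group Q] [Finite Q] (z : Q), Good 2 Q z →
    Nat.card Q = n → ∀ (m : ℕ), n = 2 * (2 ^ m) ^ 2 → ∀ A : Subgroup Q, EA A →
      Nat.card A ≤ 2 * 2 ^ m ∧
        (Nat.card A = 2 * 2 ^ m → Nat.card {g : Q // g ^ 2 = 1} = (2 ^ m) ^ 2 + 2 ^ m) := by
  intro n
  induction n using Nat.strong_induction_on with
  | _ n ih =>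
    intro Q _ _ z hG hn m hm A hA
    have htpos : 0 < 2 ^ m := by positivity
    by_cases hcen : ∀ a ∈ A, ∀ g : Q, a * g = g * a
    · have hle : A ≤ Subgroup.zpowers z := by
        intro a ha
        obtain ⟨k, hk⟩ := hG.2.2.2.1 a (hcen a ha)
        rw [hk]; exact Subgroup.pow_mem _ (Subgroup.mem_zpowers z) k
      have h1 : Nat.card A ≤ 2 := by
        have := Subgroup.card_le_of_le hle
        rwa [(ea_zpowers hG).2] at this
      refine ⟨by omega, fun h => ?_⟩
      have ht : 2 ^ m = 1 := by omega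
      have hn2 : Nat.card Q = 2 := by rw [hn, hm, ht]; norm_num
      rw [ht, count_abelian hG (abelian_of_card hG hn2)]; norm_num
    · push Not at hcen
      obtain ⟨a, ha, g, hag⟩ := hcen
      have hagz : ⁅a, g⁆ = z := by
        rcases comm_cases hG a g with h | h
        · exact absurd (commutatorElement_eq_one_iff_mul_comm.1 h) hag
        · exact h
      obtain ⟨b, hD⟩ := dpair_left' hG hagz (hA.2 a ha)
      have hC := good_cen hG hD.1
      have hcard := card_eq4 hG hD.1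
      have hpos : 0 < Nat.card (cen a b) := Nat.card_pos
      obtain ⟨k, rfl⟩ : ∃ k, m = k + 1 := by
        rcases Nat.eq_zero_or_pos m with h0 | h0
        · exfalso
          rw [h0] at hm
          omega
        · exact ⟨m - 1, by omega⟩
      have e : (2 : ℕ) ^ (k + 1) = 2 * 2 ^ k := by rw [pow_succ]; ring
      have hcC : Nat.card (cen a b) = 2 * (2 ^ k) ^ 2 := by
        have h1 : 4 * Nat.card (cen a b) = 2 * (2 * 2 ^ k) ^ 2 := by
          rw [← e, ← hm, ← hn, hcard]
        nlinarith [h1]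
      -- the part of `A` inside the centralizer
      let B : Subgroup (cen a b) := A.subgroupOf (cen a b)
      have hB : EA B := by
        refine ⟨fun c hc c' hc' => Subtype.ext ?_, fun c hc => Subtype.ext ?_⟩
        · exact hA.1 c.1 (Subgroup.mem_subgroupOf.1 hc) c'.1 (Subgroup.mem_subgroupOf.1 hc')
        · have := hA.2 c.1 (Subgroup.mem_subgroupOf.1 hc)
          simpa using this
      have hsurj : Function.Surjective (fun m : Fin 2 × B =>
          (⟨a ^ (m.1 : ℕ) * m.2.1.1,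
            A.mul_mem (A.pow_mem ha _) (Subgroup.mem_subgroupOf.1 m.2.2)⟩ : A)) := by
        rintro ⟨g', hg'⟩
        obtain ⟨i, j, c, hc, rfl⟩ := decomp_surj2 hG hD.1 g'
        have hcen := hG.central
        have h1 : ⁅a ^ (i : ℕ) * b ^ (j : ℕ) * c, a⁆ = z ^ (j : ℕ) := by
          rw [comm_mul_left hcen, comm_mul_left hcen, comm_pow_left hcen, comm_pow_left hcen,
            commutatorElement_self, one_pow, one_mul, swap_pair hG hD.1,
            ((mem_cen_iff_comm c).1 hc).1, mul_one]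
        have h2 : ⁅a ^ (i : ℕ) * b ^ (j : ℕ) * c, a⁆ = 1 :=
          commutatorElement_eq_one_iff_mul_comm.2 (hA.1 _ hg' a ha)
        have hj : (j : ℕ) = 0 := by
          rcases Nat.eq_zero_or_pos (j : ℕ) with h | h
          · exact h
          · exfalso
            have hj1 : (j : ℕ) = 1 := by have := j.2; omega
            rw [h1, hj1, pow_one] at h2
            exact hG.1 h2
        have hcA : c ∈ A := by
          have h3 : c = (a ^ (i : ℕ))⁻¹ * (a ^ (i : ℕ) * b ^ (j : ℕ) * c) := by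
            rw [hj]; group
          rw [h3]
          exact A.mul_mem (A.inv_mem (A.pow_mem ha _)) hg'
        refine ⟨(i, ⟨⟨c, hc⟩, Subgroup.mem_subgroupOf.2 hcA⟩), Subtype.ext ?_⟩
        show a ^ (i : ℕ) * c = a ^ (i : ℕ) * b ^ (j : ℕ) * c
        rw [hj, pow_zero, mul_one]
      have hAB : Nat.card A ≤ 2 * Nat.card B := by
        have := Nat.card_le_card_of_surjective _ hsurj
        rwa [Nat.card_prod, Nat.card_fin] at this
      obtain ⟨hB1, hB2⟩ := ih (Nat.card (cen a b)) (by omega) (cen a b) _ hC rfl k hcC B hB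
      rw [e]
      refine ⟨by omega, fun h => ?_⟩
      have hBc : Nat.card B = 2 * 2 ^ k := by omega
      have hNC := hB2 hBc
      rw [count_D hG hD, hNC, hcC]; ring

/-- Existence of large elementary abelian subgroups. -/
theorem ea_exists : ∀ (n : ℕ) (Q : Type u) [Group Q] [Finite Q] (z : Q), Good 2 Q z →
    Nat.card Q = n → ∀ (m : ℕ), n = 2 * (2 ^ m) ^ 2 →
      (Nat.card {g : Q // g ^ 2 = 1} = (2 ^ m) ^ 2 + 2 ^ m →
        ∃ A : Subgroup Q, EA A ∧ 2 * 2 ^ m ≤ Nat.card A) ∧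
      (∃ A : Subgroup Q, EA A ∧ 2 ^ m ≤ Nat.card A) := by
  intro n
  induction n using Nat.strong_induction_on with
  | _ n ih =>
    intro Q _ _ z hG hn m hm
    have htpos : 0 < 2 ^ m := by positivity
    by_cases hD : ∃ x y : Q, DPair z x y
    · obtain ⟨x, y, hD⟩ := hD
      have hC := good_cen hG hD.1
      have hcard := card_eq4 hG hD.1
      have hpos : 0 < Nat.card (cen x y) := Nat.card_pos
      obtain ⟨k, rfl⟩ : ∃ k, m = k + 1 := by
        rcases Nat.eq_zero_or_pos m with h0 | h0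
        · exfalso
          rw [h0] at hm
          omega
        · exact ⟨m - 1, by omega⟩
      have e : (2 : ℕ) ^ (k + 1) = 2 * 2 ^ k := by rw [pow_succ]; ring
      have hcC : Nat.card (cen x y) = 2 * (2 ^ k) ^ 2 := by
        have h1 : 4 * Nat.card (cen x y) = 2 * (2 * 2 ^ k) ^ 2 := by
          rw [← e, ← hm, ← hn, hcard]
        nlinarith [h1]
      obtain ⟨h1, h2⟩ := ih (Nat.card (cen x y)) (by omega) (cen x y) _ hC rfl k hcC
      rw [e]
      constructor
      · intro hN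
        have hNC : Nat.card {c : cen x y // c ^ 2 = 1} = (2 ^ k) ^ 2 + 2 ^ k := by
          have hc := count_D hG hD
          rw [hN, hcC] at hc
          nlinarith [hc]
        obtain ⟨B, hB, hBc⟩ := h1 hNC
        obtain ⟨A, hA, hAc⟩ := ea_extend hG hD B hB
        exact ⟨A, hA, by omega⟩
      · obtain ⟨B, hB, hBc⟩ := h2
        obtain ⟨A, hA, hAc⟩ := ea_extend hG hD B hB
        exact ⟨A, hA, by omega⟩
    · have hz := ea_zpowers hG
      by_cases h2 : Nat.card Q = 2
      · have ht : 2 ^ m = 1 := by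
          have : 2 * (2 ^ m) ^ 2 = 2 := by rw [← hm, ← hn, h2]
          nlinarith [this]
        rw [ht]
        exact ⟨fun _ => ⟨_, hz.1, by rw [hz.2]⟩, ⟨_, hz.1, by rw [hz.2]; norm_num⟩⟩
      · have h8 : Nat.card Q = 8 := by
          by_contra h8
          exact hD (exists_dpair hG h2 h8)
        have ht : 2 ^ m = 2 := by
          have h3 : 2 * (2 ^ m) ^ 2 = 8 := by rw [← hm, ← hn, h8]
          have h4 : 2 ^ m ≤ 2 := by nlinarith [h3]
          have h5 : 2 ≤ 2 ^ m := by nlinarith [h3]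
          omega
        rw [ht]
        refine ⟨fun hN => ?_, ⟨_, hz.1, by rw [hz.2]⟩⟩
        exfalso
        have hab : ¬ ∀ g h : Q, g * h = h * g := fun h => h2 (card_of_abelian hG h)
        obtain ⟨x, y, hxy⟩ := exists_pair hG hab
        rcases pair_cases hG hxy with hD' | hQ
        · exact hD hD'
        · obtain ⟨k1, k2⟩ := key8 hG h8 x y hQ.1
          have := count_Q hG hQ
          omega

/-- The dichotomy: plus type has 2-rank `m + 1`, minus type has 2-rank `m`. -/
theorem rank_dichotomy {Q : Type u} [Group Q] [Finite Q] {z : Q} (hG : Good 2 Q z) (m : ℕ)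
    (hm : Nat.card Q = 2 * (2 ^ m) ^ 2) :
    (Nat.card {g : Q // g ^ 2 = 1} = (2 ^ m) ^ 2 + 2 ^ m ∧ Cfsg.PRankLE 2 (m + 1) Q ∧
        ¬ Cfsg.PRankLE 2 m Q) ∨
      (Nat.card {g : Q // g ^ 2 = 1} + 2 ^ m = (2 ^ m) ^ 2 ∧ Cfsg.PRankLE 2 m Q ∧
        ¬ Cfsg.PRankLE 2 (m - 1) Q) := by
  have htpos : 0 < 2 ^ m := by positivity
  have e : (2 : ℕ) ^ (m + 1) = 2 * 2 ^ m := by rw [pow_succ]; ring
  have toEA : ∀ A : Subgroup Q, IsMulCommutative A → (∀ a ∈ A, a ^ 2 = 1) → EA A := by
    intro A h1 h2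
    exact ⟨fun a ha b hb => congrArg Subtype.val (h1.is_comm.comm ⟨a, ha⟩ ⟨b, hb⟩), h2⟩
  have ofEA : ∀ A : Subgroup Q, EA A → IsMulCommutative A := by
    intro A hA
    exact ⟨⟨fun a b => Subtype.ext (hA.1 a.1 a.2 b.1 b.2)⟩⟩
  obtain ⟨m', hm', hN⟩ := card_and_count (Nat.card Q) Q z hG rfl
  have hmm : m' = m := by
    have h1 : (2 ^ m') ^ 2 = (2 ^ m) ^ 2 := by omega
    have h2 : 2 ^ m' = 2 ^ m := Nat.pow_left_injective (by norm_num) h1
    exact Nat.pow_right_injective (le_refl 2) h2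
  subst hmm
  have hub := fun A hA => ea_card_le (Nat.card Q) Q z hG rfl m' hm A hA
  obtain ⟨hex1, hex2⟩ := ea_exists (Nat.card Q) Q z hG rfl m' hm
  rcases hN with hN | hN
  · left
    refine ⟨hN, ?_, ?_⟩
    · intro A h1 h2
      rw [e]
      exact (hub A (toEA A h1 h2)).1
    · intro hr
      obtain ⟨A, hA, hAc⟩ := hex1 hN
      have := hr A (ofEA A hA) hA.2
      omega
  · right
    refine ⟨hN, ?_, ?_⟩
    · intro A h1 h2
      by_contra hlt
      push Not at hlt
      have hA := toEA A h1 h2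
      obtain ⟨hle, heq⟩ := hub A hA
      have hdvd : Nat.card A ∣ 2 ^ (2 * m' + 1) := by
        have h3 := Subgroup.card_subgroup_dvd_card A
        rw [hm] at h3
        have e2 : (2 : ℕ) ^ (2 * m' + 1) = 2 * (2 ^ m') ^ 2 := by rw [pow_succ, pow_mul']; ring
        rw [e2]; exact h3
      obtain ⟨j, -, hj⟩ := (Nat.dvd_prime_pow Nat.prime_two).1 hdvd
      rw [hj] at hlt hle
      have hmj : m' < j := (Nat.pow_lt_pow_iff_right (by norm_num)).1 hlt
      have h4 : 2 ^ (m' + 1) ≤ 2 ^ j := Nat.pow_le_pow_right (by norm_num) hmj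
      have h5 : Nat.card A = 2 * 2 ^ m' := by rw [hj]; omega
      have := heq h5
      omega
    · intro hr
      obtain ⟨A, hA, hAc⟩ := hex2
      have h1 := hr A (ofEA A hA) hA.2
      have hm1 : 1 ≤ m' := by
        rcases Nat.eq_zero_or_pos m' with h0 | h0
        · exfalso
          rw [h0] at hN
          have hpos : 0 < Nat.card {g : Q // g ^ 2 = 1} := by
            haveI : Nonempty {g : Q // g ^ 2 = 1} := ⟨⟨1, one_pow 2⟩⟩
            exact Nat.card_pos
          simp at hN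
          omega
        · exact h0
      have h2 : 2 ^ (m' - 1) < 2 ^ m' := Nat.pow_lt_pow_right (by norm_num) (by omega)
      omega

end Cfsg.Agent.Lib.Helper1.ESTwo
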